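import Mathlib
import Cfsg.Agent.Lib.Helper35.BG.Basic
import Cfsg.Agent.Lib.Helper35.BG.Hall
import Cfsg.Agent.Lib.Helper35.BG.Compl
import Cfsg.Agent.Lib.Helper91.Coprime2
import Cfsg.Agent.Lib.Helper64.BaerSuzuki
import Cfsg.Agent.Lib.Helper61.Norm

/-!
# Coprime action: invariant Sylow subgroups for arbitrary (solvable) operator groups

`A` normalizes `K`, `(|A|, |K|) = 1`, and `A` or `K` is solvable.

* `exists_sylIn_normalized`: some Sylow `s`-subgroup of `K` is normalized by `A`.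
* `exists_sylIn_normalized_ge`: every `A`-invariant `s`-subgroup of `K` lies in an `A`-invariant
  Sylow `s`-subgroup of `K`.
-/

set_option autoImplicit false

namespace Cfsg.Agent.Lib.Helper23.BG

open Cfsg Cfsg.Agent.Lib.Helper46 Cfsg.Agent.Lib.Helper35.BG
open Subgroup

universe u

variable {G : Type u} [Group G]

/-- Coprime action: an `A`-invariant Sylow `s`-subgroup of `K` exists. -/
theorem exists_sylIn_normalized [Finite G] (A K : Subgroup G)
    (hAK : A ≤ normalizer (K : Set G)) (hcop : (Nat.card A).Coprime (Nat.card K))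
    (hsolv : Group.IsSolvable A ∨ Group.IsSolvable K) (s : ℕ) [Fact s.Prime] :
    ∃ S : Subgroup G, IsSylowIn s S K ∧ A ≤ normalizer (S : Set G) := by
  classical
  obtain P₀ : Sylow s K := default
  obtain ⟨S₀, hS₀def⟩ : ∃ S₀ : Subgroup G, S₀ = (P₀ : Subgroup K).map K.subtype := ⟨_, rfl⟩
  have hS₀ : IsSylowIn s S₀ K := hS₀def ▸ isSylowIn_of_sylow P₀
  obtain ⟨H, hH⟩ : ∃ H : Subgroup G, H = K ⊔ A := ⟨_, rfl⟩
  obtain ⟨L, hL⟩ : ∃ L : Subgroup G, L = H ⊓ normalizer (S₀ : Set G) := ⟨_, rfl⟩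
  have hKH : K ≤ H := hH ▸ le_sup_left
  have hAH : A ≤ H := hH ▸ le_sup_right
  have hHK : H ≤ normalizer (K : Set G) := hH ▸ sup_le Subgroup.le_normalizer hAK
  have hLH : L ≤ H := hL ▸ inf_le_left
  have hLS₀ : L ≤ normalizer (S₀ : Set G) := hL ▸ inf_le_right
  have hLK : L ≤ normalizer (K : Set G) := hLH.trans hHK
  -- Frattini
  have hfrat : ∀ a ∈ A, ∃ k ∈ K, k⁻¹ * a ∈ L := by
    intro a ha
    obtain ⟨k, hk, hka⟩ := Cfsg.Agent.Lib.Helper91.frattini_normalizer K s P₀ a (hAK ha)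
    refine ⟨k, hk, ?_⟩
    rw [hL]
    refine Subgroup.mem_inf.mpr ⟨H.mul_mem (H.inv_mem (hKH hk)) (hAH ha), ?_⟩
    rw [hS₀def]; exact hka
  have hKL : K ⊔ L = H := by
    apply le_antisymm (sup_le hKH hLH)
    rw [hH]
    apply sup_le le_sup_left
    intro a ha
    obtain ⟨k, hk, hka⟩ := hfrat a ha
    have e : a = k * (k⁻¹ * a) := by group
    rw [e]
    exact Subgroup.mul_mem _ (Subgroup.mem_sup_left hk) (Subgroup.mem_sup_right hka)
  -- orders
  have hKA : K ⊓ A = ⊥ := by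
    have h1 := Subgroup.disjoint_of_coprime_natCard (H := A) (K := K) hcop
    rw [inf_comm]; exact disjoint_iff.mp h1
  have hc1 := Cfsg.Agent.Lib.Helper91.card_sup_mul_card_inf_of_le_normalizer K A hAK
  rw [hKA, Subgroup.card_bot, mul_one, ← hH] at hc1
  have hc2 := Cfsg.Agent.Lib.Helper91.card_sup_mul_card_inf_of_le_normalizer K L hLK
  rw [hKL, hc1] at hc2
  have hKpos : 0 < Nat.card K := Nat.card_pos
  have hc3 : Nat.card A * Nat.card (K ⊓ L : Subgroup G) = Nat.card L := by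
    apply Nat.eq_of_mul_eq_mul_left hKpos
    rw [← hc2]; ring
  obtain ⟨N, hN⟩ : ∃ N : Subgroup G, N = K ⊓ L := ⟨_, rfl⟩
  rw [← hN] at hc3
  have hNL : N ≤ L := hN ▸ inf_le_right
  have hNK : N ≤ K := hN ▸ inf_le_left
  have hLN : L ≤ normalizer (N : Set G) := by
    rw [hN]
    exact (le_inf hLK Subgroup.le_normalizer).trans
      (Cfsg.Agent.Lib.Helper61.normalizer_inf_le_normalizer_inf K L)
  have hrel : N.relIndex L = Nat.card A := by
    have h1 := card_mul_relIndex' hNL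
    have hNpos : 0 < Nat.card N := Nat.card_pos
    apply Nat.eq_of_mul_eq_mul_left hNpos
    rw [h1, ← hc3]; ring
  have hcopN : (Nat.card N).Coprime (N.relIndex L) := by
    rw [hrel]
    exact (hcop.coprime_dvd_right (Subgroup.card_dvd_of_le hNK)).symm
  obtain ⟨B, hB⟩ := exists_isComplIn_of_coprime hNL hLN hcopN
  have hBcard : Nat.card B = Nat.card A := by
    rw [← relIndex_left_of_isComplIn hB, hrel]
  have hBL : B ≤ L := hB.2.1
  obtain ⟨n, hn, hnB⟩ := Cfsg.Agent.Lib.Helper91.coprime_conj_eq A K hAK hcop hsolv B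
    (hH ▸ hBL.trans hLH) hBcard
  refine ⟨S₀.map (MulAut.conj n).toMonoidHom, ?_, ?_⟩
  · refine sylIn_of_card_eq hS₀ ?_ (card_map_conj S₀ n)
    rintro _ ⟨x, hx, rfl⟩
    have hxK : x ∈ K := hS₀.1 hx
    show n * x * n⁻¹ ∈ K
    exact K.mul_mem (K.mul_mem hn hxK) (K.inv_mem hn)
  · intro a ha
    rw [← hnB, Cfsg.Agent.Lib.Helper1.mem_conj_smul] at ha
    have h1 : n⁻¹ * a * n ∈ normalizer (S₀ : Set G) := hLS₀ (hBL ha)
    rw [normalizer_map_conj]
    rw [mem_map_conj_iff]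
    exact h1

/-- Coprime action: every `A`-invariant `s`-subgroup of `K` lies in an `A`-invariant Sylow
`s`-subgroup of `K`. -/
theorem exists_sylIn_normalized_ge [Finite G] (A K : Subgroup G)
    (hAK : A ≤ normalizer (K : Set G)) (hcop : (Nat.card A).Coprime (Nat.card K))
    (hsolv : Group.IsSolvable A ∨ Group.IsSolvable K) (s : ℕ) [Fact s.Prime]
    (S₁ : Subgroup G) (hS₁K : S₁ ≤ K) (hS₁ : IsPGroup s S₁)
    (hAS₁ : A ≤ normalizer (S₁ : Set G)) :
    ∃ S : Subgroup G, IsSylowIn s S K ∧ A ≤ normalizer (S : Set G) ∧ S₁ ≤ S := by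
  classical
  obtain ⟨S, hS₁S, hSmax⟩ := Finite.exists_le_maximal
    (p := fun T : Subgroup G => T ≤ K ∧ IsPGroup s T ∧ A ≤ normalizer (T : Set G)) (a := S₁)
    ⟨hS₁K, hS₁, hAS₁⟩
  obtain ⟨⟨hSK, hSs, hAS⟩, hmax'⟩ := hSmax
  obtain ⟨N₁, hN₁⟩ : ∃ N₁ : Subgroup G, N₁ = K ⊓ normalizer (S : Set G) := ⟨_, rfl⟩
  have hN₁K : N₁ ≤ K := hN₁ ▸ inf_le_left
  have hN₁S : N₁ ≤ normalizer (S : Set G) := hN₁ ▸ inf_le_right
  have hSN₁ : S ≤ N₁ := hN₁ ▸ le_inf hSK Subgroup.le_normalizer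
  have hAN₁ : A ≤ normalizer (N₁ : Set G) := by
    rw [hN₁]
    exact (le_inf hAK (hAS.trans Subgroup.le_normalizer)).trans
      (Cfsg.Agent.Lib.Helper61.normalizer_inf_le_normalizer_inf K _)
  have hsolv' : Group.IsSolvable A ∨ Group.IsSolvable N₁ := by
    rcases hsolv with h | h
    · exact Or.inl h
    · exact Or.inr (Group.isSolvable_of_isSolvable_injective (Subgroup.inclusion_injective hN₁K))
  obtain ⟨T, hT, hAT⟩ := exists_sylIn_normalized A N₁ hAN₁
    (hcop.coprime_dvd_right (Subgroup.card_dvd_of_le hN₁K)) hsolv' s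
  have hST : S ≤ T := sylIn_normal_le hT hSs hSN₁ hN₁S
  have hTS : T ≤ S := hmax' ⟨hT.1.trans hN₁K, sylIn_isPGroup hT, hAT⟩ hST
  have hTeq : T = S := le_antisymm hTS hST
  rw [hTeq] at hT
  obtain ⟨R, hR, hSR⟩ := exists_isSylowIn_ge hSs hSK
  have hRs : IsPGroup s R := sylIn_isPGroup hR
  have hRS : R = S := by
    by_contra hne
    have hlt : S < R := lt_of_le_of_ne hSR (fun h => hne h.symm)
    have h1 := Cfsg.Agent.Lib.Helper64.lt_inf_normalizer hRs hlt
    have h2 : R ⊓ normalizer (S : Set G) = S :=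
      sylIn_eq_of_le hT (hRs.to_le inf_le_left)
        (hN₁ ▸ inf_le_inf hR.1 le_rfl) (le_inf hSR Subgroup.le_normalizer)
    exact h1.ne h2.symm
  rw [hRS] at hR
  exact ⟨S, hR, hAS, hS₁S⟩

end Cfsg.Agent.Lib.Helper23.BG
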