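import Mathlib
import Cfsg.Prelude.Def_OddOrderLocal
import Cfsg.Agent.Lib.Helper2.BG.PartnerDefs
import Cfsg.Agent.Lib.Helper67.BG.HallUtil
import Cfsg.Agent.Lib.Helper35.BG.Basic
import Cfsg.Agent.Lib.Helper75.BGUtil

/-!
# Core of S1351 (Bender–Glauberman: a Hall `κ(M)`-subgroup exists and is cyclic)

`s1351_core` derives the statement from the team project "BG 14.7" of helper2
(`BG47.PartnerExists`: existence of the partner `M*` for an arbitrary Hall `κ(M)`-subgroup, with
`M`, `M*` not both of type P1) and its package `BG47.LemT2` (not of type P1 implies `|K|` prime),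
together with the frozen statements these take as hypotheses.

Existence is Hall's theorem in the solvable group `M`.  Cyclicity: `K = 1` is trivial; otherwise
take the partner `M*`, so that `K = C_{M*_σ}(K*) ≤ M*_σ`.  If `M` is not of type P1 then `|K|` is
prime.  If `M*` is not of type P1 then `M*_σ` is nilpotent (S1429), so `K` is a nilpotent group
all of whose Sylow subgroups are cyclic (they are Sylow subgroups of `M` for primes of `κ(M)`),
hence cyclic.
-/

set_option autoImplicit false

namespace Cfsg.Agent.Lib.Helper23.BG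

open Cfsg

universe u

/-- The Sylow subgroups of a Hall `κ(M)`-subgroup of `M` are cyclic. -/
theorem isZGroup_of_hall_kappa {G : Type u} [Group G] [Finite G] (M K : Subgroup G)
    (hK : IsPiHallOf (kappa M) K M) : IsZGroup K := by
  refine ⟨fun p hp P => ?_⟩
  have : Fact p.Prime := ⟨hp⟩
  by_cases hdvd : p ∣ Nat.card K
  · have hκ : p ∈ kappa M := hK.2.1 p hp hdvd
    have hnd : ¬ p ∣ K.relIndex M := hK.2.2 p hp hκ
    have hPM : (P : Subgroup K).map K.subtype ≤ M := (Subgroup.map_subtype_le _).trans hK.1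
    let e1 : (P : Subgroup K) ≃* ((P : Subgroup K).map K.subtype) :=
      Subgroup.equivMapOfInjective _ _ K.subtype_injective
    let e2 : (((P : Subgroup K).map K.subtype).subgroupOf M) ≃* ((P : Subgroup K).map K.subtype) :=
      Subgroup.subgroupOfEquivOfLe hPM
    have hfac : (Nat.card K).factorization p = (Nat.card M).factorization p := by
      have h1 : Nat.card (K.subgroupOf M) * (K.subgroupOf M).index = Nat.card M :=
        Subgroup.card_mul_index _
      rw [Nat.card_congr (Subgroup.subgroupOfEquivOfLe hK.1).toEquiv] at h1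
      have hidx : (K.subgroupOf M).index ≠ 0 := Subgroup.index_ne_zero_of_finite
      rw [← h1, Nat.factorization_mul Nat.card_pos.ne' hidx]
      have h0 : ((K.subgroupOf M).index).factorization p = 0 :=
        Nat.factorization_eq_zero_of_not_dvd hnd
      simp [h0]
    have hcardQ : Nat.card (((P : Subgroup K).map K.subtype).subgroupOf M) =
        p ^ (Nat.card M).factorization p := by
      rw [Nat.card_congr e2.toEquiv, ← Nat.card_congr e1.toEquiv, Sylow.card_eq_multiplicity,
        hfac]
    have hc : IsCyclic ↥((Sylow.ofCard (((P : Subgroup K).map K.subtype).subgroupOf M) hcardQ :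
        Sylow p M) : Subgroup M) := (hκ.2.2.2 _).1
    have hc' : IsCyclic ↥(((P : Subgroup K).map K.subtype).subgroupOf M) := hc
    exact (e1.trans e2.symm).isCyclic.mpr hc'
  · have h1 : Nat.card (P : Subgroup K) = 1 := by
      obtain ⟨n, hn⟩ := IsPGroup.iff_card.mp P.isPGroup'
      have hdvd' : Nat.card (P : Subgroup K) ∣ Nat.card K := Subgroup.card_subgroup_dvd_card _
      rcases n with _ | n
      · simpa using hn
      · exfalso
        apply hdvd
        rw [hn] at hdvd'
        exact (dvd_pow_self p (Nat.succ_ne_zero n)).trans hdvd'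
    have : Subsingleton (P : Subgroup K) := (Nat.card_eq_one_iff_unique.mp h1).1
    infer_instance

/-- **Core of S1351**: from the partner theorem (`BG47.PartnerExists`, for an arbitrary Hall
`κ(M)`-subgroup) and `BG47.LemT2`. -/
theorem s1351_core {G : Type u} [Group G] [Finite G] (hG : Cfsg.IsMinSimpleOddOrder G)
    (hPE : Cfsg.Agent.Lib.Helper2.BG47.PartnerExists.{u})
    (hT2 : Cfsg.Agent.Lib.Helper2.BG47.LemT2.{u})
    (h1350 : type_of% (@Cfsg.CfsgFrozen.S1350 G _ _ hG))
    (h1375 : type_of% (@Cfsg.CfsgFrozen.S1375 G _ _ hG))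
    (h1377 : type_of% (@Cfsg.CfsgFrozen.S1377 G _ _ hG))
    (h1378 : type_of% (@Cfsg.CfsgFrozen.S1378 G _ _ hG))
    (h1429 : type_of% (@Cfsg.CfsgFrozen.S1429 G _ _ hG))
    (h1430 : type_of% (@Cfsg.CfsgFrozen.S1430 G _ _ hG))
    (h1431 : type_of% (@Cfsg.CfsgFrozen.S1431 G _ _ hG))
    (h1432 : type_of% (@Cfsg.CfsgFrozen.S1432 G _ _ hG))
    (h1433 : type_of% (@Cfsg.CfsgFrozen.S1433 G _ _ hG))
    (M : Subgroup G) (hM : IsCoatom M) :
    (∃ K : Subgroup G, Cfsg.IsPiHallOf (Cfsg.kappa M) K M) ∧
      ∀ K : Subgroup G, Cfsg.IsPiHallOf (Cfsg.kappa M) K M → IsCyclic K := by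
  constructor
  · have hsolv : Group.IsSolvable M :=
      Cfsg.Agent.Lib.Helper35.BG.isSolvable_of_ne_top hG hM.1
    obtain ⟨K, hK, -⟩ := Cfsg.Agent.Lib.Helper67.BG.exists_piHallOf_ge (kappa M) M hsolv ⊥ bot_le
      (by
        intro p hp hdvd
        rw [Subgroup.card_bot] at hdvd
        exact absurd (Nat.dvd_one.mp hdvd) hp.one_lt.ne')
    exact ⟨K, hK⟩
  · intro K hK
    by_cases hK1 : K = ⊥
    · subst hK1
      infer_instance
    · obtain ⟨Mstar, hMs, -, hKeq, hP1⟩ :=
        hPE hG h1350 h1375 h1377 h1378 h1429 h1430 h1431 h1432 h1433 M hM K hK hK1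
      rcases hP1 with hP1 | hP1
      · have hprime : (Nat.card K).Prime := hT2 hG h1429 h1430 M hM K hK hK1 hP1
        have : Fact (Nat.card K).Prime := ⟨hprime⟩
        exact isCyclic_of_prime_card rfl
      · have hP1' : ¬ (∀ q : ℕ, q.Prime → q ∣ Nat.card Mstar → q ∉ Cfsg.sigma Mstar →
            q ∈ Cfsg.kappa Mstar) := hP1
        have hex : ∃ q : ℕ, q.Prime ∧ q ∣ Nat.card Mstar ∧ q ∉ Cfsg.sigma Mstar ∧
            q ∉ Cfsg.kappa Mstar := by
          by_contra hcon
          apply hP1'
          intro q hq hqM hqσ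
          by_contra hqκ
          exact hcon ⟨q, hq, hqM, hqσ, hqκ⟩
        obtain ⟨q, hq, hqM, hqσ, hqκ⟩ := hex
        have : Fact q.Prime := ⟨hq⟩
        have S : Sylow q Mstar := default
        have hq' : q ∉ Cfsg.sigma Mstar ∪ Cfsg.kappa Mstar := by
          rintro (h | h)
          · exact hqσ h
          · exact hqκ h
        have hnil : Group.IsNilpotent (Cfsg.sigmaCore Mstar) :=
          (h1429 Mstar hMs hP1' q hqM hq' S).2.2
        have hKle : K ≤ Cfsg.sigmaCore Mstar := hKeq.le.trans inf_le_left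
        have : IsZGroup K := isZGroup_of_hall_kappa M K hK
        have : Group.IsNilpotent K := Cfsg.Agent.Lib.Helper75.BG.isNilpotent_of_le hKle hnil
        infer_instance

end Cfsg.Agent.Lib.Helper23.BG
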